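import Mathlib

/-!
A group whose 7-subgroups have no nontrivial automisers of 3-power order has no alternating section of
degree at least seven.
-/

set_option autoImplicit false
set_option linter.style.haveILetI false

namespace CfsgLib.AltSevenSections

open Equiv

/-- Doubling modulo seven. -/
def double : Perm (Fin 7) := Equiv.swap 1 2 * Equiv.swap 2 4 * (Equiv.swap 3 6 * Equiv.swap 6 5)

theorem double_spec : Perm.sign double = 1 ∧ double ^ 3 = 1 ∧
    double * finRotate 7 * double⁻¹ = finRotate 7 ^ 2 ∧ Perm.sign (finRotate 7) = 1 ∧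
    (finRotate 7) ^ 7 = 1 ∧ finRotate 7 ≠ 1 := by decide +kernel

/-- In an alternating group of degree at least seven an element of order seven is conjugate to its square
by an element of order three. -/
theorem exists_frobenius {r : ℕ} (hr : 7 ≤ r) : ∃ x y : alternatingGroup (Fin r),
    orderOf x = 7 ∧ y ^ 3 = 1 ∧ y * x * y⁻¹ = x ^ 2 := by
  obtain ⟨h1, h2, h3, h4, h5, h6⟩ := double_spec
  let φ : Perm (Fin 7) →* Perm (Fin r) :=
    Perm.extendDomainHom (Equiv.ofInjective (Fin.castLE hr) (Fin.castLE_injective hr))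
  have hinj : Function.Injective φ := Perm.extendDomainHom_injective _
  have hs : ∀ e, Perm.sign (φ e) = Perm.sign e := fun e => Perm.sign_extendDomain e _
  haveI : Fact (Nat.Prime 7) := ⟨by norm_num⟩
  refine ⟨⟨φ (finRotate 7), Perm.mem_alternatingGroup.2 (by rw [hs, h4])⟩,
    ⟨φ double, Perm.mem_alternatingGroup.2 (by rw [hs, h1])⟩, orderOf_eq_prime ?_ ?_, Subtype.ext ?_, Subtype.ext ?_⟩
  · exact Subtype.ext (show φ (finRotate 7) ^ 7 = 1 by rw [← map_pow, h5, map_one])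
  · exact fun h => h6 (hinj ((congrArg Subtype.val h).trans (map_one φ).symm))
  · show φ double ^ 3 = 1
    rw [← map_pow, h2, map_one]
  · show φ double * φ (finRotate 7) * (φ double)⁻¹ = φ (finRotate 7) ^ 2
    rw [← map_inv, ← map_mul, ← map_mul, h3, map_pow]

variable {G : Type*} [Group G] [Finite G]

theorem alt_section_le_six {r : ℕ} (H : Subgroup G) (N : Subgroup H) [N.Normal]
    (h : Nonempty (↥H ⧸ N ≃* ↥(alternatingGroup (Fin r))))
    (hfus : ∀ R : Subgroup G, IsPGroup 7 R → ∀ g : G, (∃ j, g ^ 3 ^ j = 1) →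
      (∀ t ∈ R, g * t * g⁻¹ ∈ R) → ∀ t ∈ R, Commute g t) : r ≤ 6 := by
  by_contra hcon
  obtain ⟨e⟩ := h
  obtain ⟨x, y, hx, hy3, hyx⟩ := exists_frobenius (r := r) (by omega)
  haveI : Fact (Nat.Prime 7) := ⟨by norm_num⟩
  let π : ↥H →* ↥(alternatingGroup (Fin r)) := e.toMonoidHom.comp (QuotientGroup.mk' N)
  have hπ : Function.Surjective π := e.surjective.comp (QuotientGroup.mk'_surjective N)
  let M : Subgroup ↥H := (Subgroup.zpowers x).comap π
  obtain ⟨R⟩ : Nonempty (Sylow 7 ↥M) := inferInstance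
  let f : ↥M →* ↥(Subgroup.zpowers x) := π.subgroupComap _
  have hf : Function.Surjective f := fun ⟨a, ha⟩ => by
    obtain ⟨b, rfl⟩ := hπ a
    exact ⟨⟨b, ha⟩, rfl⟩
  have hX : IsPGroup 7 ↥(Subgroup.zpowers x) := IsPGroup.of_card (n := 1) (by rw [Nat.card_zpowers, hx, pow_one])
  have htop : (R.mapSurjective hf : Subgroup ↥(Subgroup.zpowers x)) = ⊤ :=
    ((R.mapSurjective hf).3 (hX.to_subgroup _) le_top).symm
  obtain ⟨t, htR, htx⟩ : ∃ t ∈ (R : Subgroup ↥M), π (t : ↥H) = x := by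
    have h1 : (⟨x, Subgroup.mem_zpowers x⟩ : ↥(Subgroup.zpowers x)) ∈ (R.mapSurjective hf : Subgroup _) :=
      htop ▸ Subgroup.mem_top _
    rw [Sylow.coe_mapSurjective] at h1
    obtain ⟨t, ht, e⟩ := h1
    exact ⟨t, ht, congrArg Subtype.val e⟩
  -- an element of 3-power order normalising the Sylow subgroup
  let R' : Subgroup ↥H := (R : Subgroup ↥M).map M.subtype
  obtain ⟨g₀, hg₀⟩ := hπ y
  have hMg : ∀ a ∈ M, g₀ * a * g₀⁻¹ ∈ M := by
    intro a ha
    rw [Subgroup.mem_comap] at ha ⊢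
    obtain ⟨k, hk⟩ := ha
    rw [map_mul, map_mul, map_inv, hg₀, ← hk, ← conj_zpow, hyx]
    exact zpow_mem (pow_mem (Subgroup.mem_zpowers x) 2) k
  haveI : Finite (Sylow 7 ↥M) := inferInstance
  let R₂ : Subgroup ↥M := (R'.map (MulAut.conj g₀).toMonoidHom).subgroupOf M
  have hR'M : R' ≤ M := Subgroup.map_subtype_le _
  have hR₂le : R'.map (MulAut.conj g₀).toMonoidHom ≤ M := by
    rintro _ ⟨a, ha, rfl⟩
    exact hMg a (hR'M ha)
  have hcard : Nat.card R₂ = Nat.card (R : Subgroup ↥M) := by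
    rw [Nat.card_congr (Subgroup.subgroupOfEquivOfLe hR₂le).toEquiv,
      Subgroup.card_map_of_injective (MulAut.conj g₀).injective, Subgroup.card_map_of_injective M.subtype_injective]
  let S₂ : Sylow 7 ↥M := Sylow.ofCard R₂ (hcard.trans R.card_eq_multiplicity)
  obtain ⟨c, hc⟩ := MulAction.exists_smul_eq ↥M S₂ R
  set g : ↥H := (c : ↥H) * g₀ with hg
  have hgR : ∀ a ∈ R', g * a * g⁻¹ ∈ R' := by
    intro a ha
    have h1 : (⟨g₀ * a * g₀⁻¹, hMg a (hR'M ha)⟩ : ↥M) ∈ (S₂ : Subgroup ↥M) := by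
      rw [Sylow.coe_ofCard, Subgroup.mem_subgroupOf]
      exact ⟨a, ha, rfl⟩
    have h2 : c * ⟨g₀ * a * g₀⁻¹, hMg a (hR'M ha)⟩ * c⁻¹ ∈ (R : Subgroup ↥M) := by
      rw [← hc]
      exact Subgroup.smul_mem_pointwise_smul _ (MulAut.conj c) _ h1
    exact ⟨_, h2, by rw [hg]; simp; group⟩
  have hgx : π g * x * (π g)⁻¹ = x ^ 2 := by
    obtain ⟨k, hk⟩ := (Subgroup.mem_comap.1 c.2)
    rw [hg, map_mul, hg₀, ← hk, show x ^ k * y * x * (x ^ k * y)⁻¹ = x ^ k * (y * x * y⁻¹) * (x ^ k)⁻¹ by group,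
      hyx]
    group
  -- its 3-part
  obtain ⟨a, b, hb, hab⟩ := Nat.exists_eq_pow_mul_and_not_dvd (orderOf_pos g).ne' 3 (by norm_num)
  have hconj : ∀ n : ℕ, π g ^ n * x * (π g ^ n)⁻¹ = x ^ 2 ^ n := by
    intro n
    induction n with
    | zero => simp
    | succ n ih =>
      rw [pow_succ', show π g * π g ^ n * x * (π g * π g ^ n)⁻¹ = π g * (π g ^ n * x * (π g ^ n)⁻¹) * (π g)⁻¹
        by group, ih, ← conj_pow, hgx, ← pow_mul, ← pow_succ']
  have hnorm : ∀ n : ℕ, ∀ a ∈ R', g ^ n * a * (g ^ n)⁻¹ ∈ R' := by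
    intro n
    induction n with
    | zero => simp
    | succ n ih =>
      intro a ha
      rw [pow_succ', show g * g ^ n * a * (g * g ^ n)⁻¹ = g * (g ^ n * a * (g ^ n)⁻¹) * g⁻¹ by group]
      exact hgR _ (ih a ha)
  have hR7 : IsPGroup 7 ↥((R'.map H.subtype : Subgroup G)) := (R.isPGroup'.map M.subtype).map H.subtype
  have hcomm : Commute (g ^ b) (t : ↥H) := by
    refine Subtype.ext (hfus (R'.map H.subtype) hR7 ((g ^ b : ↥H) : G) ⟨a, ?_⟩ ?_ _
      ⟨(t : ↥H), ⟨t, htR, rfl⟩, rfl⟩).eq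
    · have : (g ^ b) ^ 3 ^ a = 1 := by rw [← pow_mul, mul_comm, ← hab, pow_orderOf_eq_one]
      exact congrArg Subtype.val this
    · rintro _ ⟨s, hs, rfl⟩
      exact ⟨_, hnorm b s hs, rfl⟩
  have h1 : x ^ 2 ^ b = x := by
    rw [← hconj b, ← htx, ← map_pow, (hcomm.map π).eq, mul_inv_cancel_right]
  have h2 : 2 ^ b ≡ 1 [MOD 7] := by
    rw [← hx, ← pow_eq_pow_iff_modEq, h1, pow_one]
  have h3 : 2 ^ b % 7 = 2 ^ (b % 3) % 7 := by
    conv_lhs => rw [← Nat.div_add_mod b 3, pow_add, pow_mul, Nat.mul_mod, Nat.pow_mod]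
    simp
  rw [Nat.ModEq, h3] at h2
  have : b % 3 = 1 ∨ b % 3 = 2 := by omega
  rcases this with h | h <;> simp [h] at h2

end CfsgLib.AltSevenSections
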