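import Cfsg.Agent.Lib.AltSevenSections.Basic
import Cfsg.Agent.Lib.Twisted.TwistedBN
import Cfsg.Agent.Lib.Twisted.WeylGroups
import Cfsg.Agent.Lib.Twisted.TorusCounts
import Cfsg.Agent.Lib.TwistedOrder.Instances

/-!
Fusion in the split torus of `²F₄(q)`: automisers are 2-groups; Sylow 7-subgroups lie in that torus.
-/

set_option autoImplicit false
set_option linter.style.haveILetI false
set_option maxRecDepth 100000

namespace CfsgLib.AltSevenSections

open Cfsg.Lie CfsgLib.Chevalley CfsgLib.Twisted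

variable {D : ChevalleyDatum} {A : Aux} {F : Type*} [Field F]

theorem commute_diagonal (h : Full D A) {s t : GL D.Idx F} (hs : s ∈ D.diagonalSubgroup F)
    (ht : t ∈ D.diagonalSubgroup F) : Commute s t := by
  rw [diagonalSubgroup_eq_range h] at hs ht
  obtain ⟨a, rfl⟩ := hs
  obtain ⟨b, rfl⟩ := ht
  exact (Commute.all a b).map (torusHom D F)

/-- Conjugation inside the torus is done by one monomial element of the group. -/
theorem exists_monomial_conj (h : Full D A) {ρ : Equiv.Perm (Fin D.nroots)} {φ : GL D.Idx F → GL D.Idx F}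
    {G : Subgroup (GL D.Idx F)} (hG : FixedPts h ρ φ G) {g : GL D.Idx F} (hg : g ∈ G) :
    ∃ n ∈ G, n ∈ D.monomialSubgroup F ∧ ∀ t ∈ D.diagonalSubgroup F, g * t * g⁻¹ ∈ D.diagonalSubgroup F →
      g * t * g⁻¹ = n * t * n⁻¹ := by
  obtain ⟨u, n, u', -, hu, hnG, hn, -, -, rfl, σ, η, hA, hu'⟩ := hG.exists_form hg
  refine ⟨n, hnG, hn, fun t ht ht' => ?_⟩
  set t' := u * n * u' * t * (u * n * u')⁻¹ with ht'def
  have hc : u * n * u' * t = t' * (u * n * u') := by rw [ht'def]; group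
  obtain ⟨a, ha⟩ : t ∈ (torusHom D F).range := by rwa [← diagonalSubgroup_eq_range h]
  obtain ⟨b, hb⟩ : t' ∈ (torusHom D F).range := by rwa [← diagonalSubgroup_eq_range h]
  have A1 := (acts_torus (F := F) h.cert b).mul hA
  have A2 := hA.mul (acts_torus (F := F) h.cert a)
  rw [one_mul, hb] at A1
  rw [mul_one, ha] at A2
  have hu'' : t⁻¹ * u' * t ∈ rootsU D F (invSet D σ) := by
    have := diagonal_conj_rootsU h _ _ (Subgroup.inv_mem _ ht) _ hu'
    rwa [inv_inv] at this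
  have e : (t' * u * t'⁻¹) * (t' * n) * u' = u * (n * t) * (t⁻¹ * u' * t) := by
    rw [show (t' * u * t'⁻¹) * (t' * n) * u' = t' * (u * n * u') by group, ← hc]
    group
  obtain ⟨-, e2, -⟩ := canonical_unique h (diagonal_conj_rootsU h _ _ ht' _ hu) hu
    (Subgroup.mul_mem _ (diagonal_le_monomial ht') hn) (Subgroup.mul_mem _ hn (diagonal_le_monomial ht))
    A1 A2 hu' hu'' e
  rw [← e2]; group

variable {K : Type*} [Field K] [Fintype K] {m : ℕ}

theorem fusion_twistedF4 (hK : Fintype.card K = 2 ^ (2 * m + 1)) (R : Subgroup ↥(twistedF4 K (2 ^ m)))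
    (hR : IsPGroup 7 R) (g : ↥(twistedF4 K (2 ^ m))) (hg3 : ∃ j, g ^ 3 ^ j = 1)
    (hgR : ∀ t ∈ R, g * t * g⁻¹ ∈ R) : ∀ t ∈ R, Commute g t := by
  classical
  haveI : Fact (Nat.Prime 7) := ⟨by norm_num⟩
  let T : Subgroup ↥(twistedF4 K (2 ^ m)) := (chevF4.diagonalSubgroup K).subgroupOf (twistedF4 K (2 ^ m))
  have hcardT : Nat.card T = (2 ^ (2 * m + 1) - 1) ^ 2 := by
    rw [← card_torusF4 hK]
    exact Nat.card_congr ((MulEquiv.subgroupCongr (Subgroup.inf_subgroupOf_right _ (twistedF4 K (2 ^ m))).symm).trans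
      (Subgroup.subgroupOfEquivOfLe inf_le_right)).toEquiv
  have hcardG := CfsgLib.TwistedOrder.card_twistedF4 hK (card_torusF4 hK)
  obtain ⟨S⟩ : Nonempty (Sylow 7 ↥T) := inferInstance
  have hfac : (Nat.card ↥(twistedF4 K (2 ^ m))).factorization 7 = (Nat.card T).factorization 7 := by
    rw [hcardT, hcardG]
    set q := 2 ^ (2 * m + 1) with hq
    have hq1 : 2 ≤ q := Nat.le_self_pow (by omega) 2
    have hq7 : q % 7 = 1 ∨ q % 7 = 2 ∨ q % 7 = 4 := by
      rw [hq, ← Nat.div_add_mod (2 * m + 1) 3, pow_add, pow_mul, Nat.mul_mod, Nat.pow_mod]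
      have : (2 * m + 1) % 3 = 0 ∨ (2 * m + 1) % 3 = 1 ∨ (2 * m + 1) % 3 = 2 := by omega
      rcases this with h | h | h <;> simp [h]
    clear_value q
    have hsplit : q ^ 12 * (q - 1) * (q ^ 3 + 1) * (q ^ 4 - 1) * (q ^ 6 + 1) =
        (q - 1) ^ 2 * (q ^ 12 * (q ^ 3 + 1) * ((q + 1) * (q ^ 2 + 1)) * (q ^ 6 + 1)) := by
      have h4 : q ^ 4 - 1 = (q - 1) * ((q + 1) * (q ^ 2 + 1)) := by
        obtain ⟨k, rfl⟩ : ∃ k, q = k + 1 := ⟨q - 1, by omega⟩
        rw [Nat.add_sub_cancel]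
        have : (k + 1) ^ 4 = k * ((k + 1 + 1) * ((k + 1) ^ 2 + 1)) + 1 := by ring
        omega
      rw [h4]; ring
    have hnd : ¬ 7 ∣ q ^ 12 * (q ^ 3 + 1) * ((q + 1) * (q ^ 2 + 1)) * (q ^ 6 + 1) := by
      rw [← ZMod.natCast_eq_zero_iff]
      push_cast
      rcases hq7 with h | h | h <;> rw [← ZMod.natCast_mod q 7, h] <;> simp only [Nat.cast_one, Nat.cast_ofNat] <;> decide +revert
    have hne : (q - 1) ^ 2 ≠ 0 := pow_ne_zero _ (by omega)
    rw [hsplit, Nat.factorization_mul hne (fun e => hnd (by rw [e]; exact dvd_zero 7)), Finsupp.add_apply,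
      Nat.factorization_eq_zero_of_not_dvd hnd, add_zero]
  let P₀ : Sylow 7 ↥(twistedF4 K (2 ^ m)) := Sylow.ofCard ((S : Subgroup ↥T).map T.subtype) (by
    rw [Subgroup.card_map_of_injective T.subtype_injective, S.card_eq_multiplicity, hfac])
  obtain ⟨P, hP⟩ := hR.exists_le_sylow
  obtain ⟨c, hc⟩ := MulAction.exists_smul_eq ↥(twistedF4 K (2 ^ m)) P P₀
  have hcT : ∀ t ∈ R, c * t * c⁻¹ ∈ T := by
    intro t ht
    have h1 : c * t * c⁻¹ ∈ (P₀ : Subgroup ↥(twistedF4 K (2 ^ m))) := by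
      rw [← hc]
      exact Subgroup.smul_mem_pointwise_smul _ (MulAut.conj c) _ (hP ht)
    rw [Sylow.coe_ofCard] at h1
    obtain ⟨s, -, e⟩ := h1
    rw [← e]
    exact s.2
  -- the conjugating element inside the torus
  set g₁ : ↥(twistedF4 K (2 ^ m)) := c * g * c⁻¹ with hg₁
  obtain ⟨ρ, φ, hfix, -⟩ := fixedDataF4 hK
  obtain ⟨n, hnG, hn, hconj⟩ := exists_monomial_conj fullF4 hfix g₁.2
  obtain ⟨ψ, -, hker⟩ := weylHomF4 (K := K) hK
  let ν : ↥(chevF4.monomialSubgroup K ⊓ twistedF4 K (2 ^ m)) := ⟨n, hn, hnG⟩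
  have h16 : n ^ 16 ∈ chevF4.diagonalSubgroup K := by
    have h1 : ν ^ 16 ∈ ψ.ker := by
      rw [MonoidHom.mem_ker, map_pow, ← show Nat.card (DihedralGroup 8) = 16 from DihedralGroup.nat_card,
        pow_card_eq_one']
    rw [hker, Subgroup.mem_subgroupOf, Subgroup.mem_inf] at h1
    simpa [ν] using h1.1
  intro t ht
  have hstep : ∀ k : ℕ, ∀ t ∈ R, ((g₁ ^ k * (c * t * c⁻¹) * (g₁ ^ k)⁻¹ : ↥(twistedF4 K (2 ^ m))) : GL chevF4.Idx K) =
      n ^ k * ((c * t * c⁻¹ : ↥(twistedF4 K (2 ^ m))) : GL chevF4.Idx K) * (n ^ k)⁻¹ := by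
    intro k
    induction k with
    | zero => intro t _; simp
    | succ k ih =>
      intro t ht
      have hmem : g * t * g⁻¹ ∈ R := hgR t ht
      have h1 := hconj _ (Subgroup.mem_subgroupOf.1 (hcT t ht)) (by
        rw [← Subgroup.coe_inv, ← Subgroup.coe_mul, ← Subgroup.coe_mul,
          show g₁ * (c * t * c⁻¹) * g₁⁻¹ = c * (g * t * g⁻¹) * c⁻¹ by rw [hg₁]; group]
        exact Subgroup.mem_subgroupOf.1 (hcT _ hmem))
      rw [show g₁ ^ (k + 1) * (c * t * c⁻¹) * (g₁ ^ (k + 1))⁻¹ =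
        g₁ ^ k * (c * (g * t * g⁻¹) * c⁻¹) * (g₁ ^ k)⁻¹ by rw [pow_succ, hg₁]; group, ih _ hmem,
        show c * (g * t * g⁻¹) * c⁻¹ = g₁ * (c * t * c⁻¹) * g₁⁻¹ by rw [hg₁]; group,
        Subgroup.coe_mul, Subgroup.coe_mul, Subgroup.coe_inv, h1, pow_succ]
      group
  have h1 : Commute (g₁ ^ 16) (c * t * c⁻¹) := by
    have e := hstep 16 t ht
    rw [(commute_diagonal fullF4 h16 (Subgroup.mem_subgroupOf.1 (hcT t ht))).eq, mul_inv_cancel_right] at e
    exact mul_inv_eq_iff_eq_mul.1 (Subtype.ext e)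
  have h2 : Commute (g ^ 16) t := by
    have h1' := h1
    rw [hg₁, conj_pow] at h1'
    exact (Commute.conj_iff c).1 h1'
  obtain ⟨j, hj⟩ := hg3
  obtain ⟨i, hi⟩ := exists_pow_eq_self_of_coprime (x := g) (n := 16)
    ((((show Nat.Coprime 2 3 by norm_num).pow 4 j)).coprime_dvd_right (orderOf_dvd_of_pow_eq_one hj))
  rw [← hi]
  exact h2.pow_left i

end CfsgLib.AltSevenSections
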